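import Mathlib
import Cfsg.Agent.Lib.Blocks.BrauerMap
import Cfsg.Agent.Lib.Basic.PCore
import Cfsg.Agent.S0912
import Cfsg.Agent.S0936
import Cfsg.Agent.Lib.Blocks.FirstMain
import Cfsg.Agent.Lib.Blocks.FirstMain2
import Cfsg.Agent.Lib.Blocks.Principal

/-!
# Blocks in characteristic `p`

A group with `C_G(O_p(G)) ≤ O_p(G)` has a single `p`-block; and a block of a group in which the normalisers
of the nontrivial `p`-subgroups are "of characteristic `p`" with nontrivial defect group is principal.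
-/

set_option autoImplicit false
set_option linter.unusedSectionVars false
set_option linter.style.haveILetI false

namespace Cfsg.Agent.Lib.BorelTits.OneBlock

open Cfsg

universe u

/-- A group of characteristic `p` has a single `p`-block. -/
theorem sameBlock_of_centralizer_le {G : Type u} [Group G] [Finite G] (p : ℕ) [Fact p.Prime]
    (M : Ideal Cfsg.AlgInt) (hM : Cfsg.IsPModular p M)
    (hCle : Subgroup.centralizer (Cfsg.pCore p G : Set G) ≤ Cfsg.pCore p G)
    (χ ψ : Cfsg.IrrCharacter G) : Cfsg.SameBlock M (χ : G → ℂ) (ψ : G → ℂ) := by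
  classical
  haveI := Fintype.ofFinite G
  haveI hprime : M.IsPrime := Cfsg.Agent.Lib.Blocks.Local.isPrime_of_isPModular hM
  haveI hPn : (Cfsg.pCore p G).Normal := Cfsg.Agent.Lib.Basic.PCore.pCore_normal p G
  have hPp : IsPGroup p (Cfsg.pCore p G) := Cfsg.Agent.Lib.Basic.PCore.pCore_isPGroup p
  -- the key congruence
  have key : ∀ (θ : Cfsg.IrrCharacter G) (g : G), g ∈ Subgroup.centralizer (Cfsg.pCore p G : Set G) →
      Cfsg.MemLocalIdeal M (Cfsg.centralChar (θ : G → ℂ) g -
        ((Subgroup.centralizer ({g} : Set G)).index : ℂ)) := by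
    intro θ g hg
    have hgP : g ∈ Cfsg.pCore p G := hCle hg
    have hK : ∀ x : G, IsConj g x → x ∈ Cfsg.pCore p G := by
      intro x hx
      obtain ⟨c, rfl⟩ := isConj_iff.mp hx
      exact hPn.conj_mem g hgP c
    set k : ℂ := ((Subgroup.centralizer ({g} : Set G)).index : ℂ) with hk
    let a : MonoidAlgebra ℂ G := Cfsg.Agent.Lib.Blocks.Central.classSum g - k • 1
    have hkloc : Cfsg.MemLocalRing M k := Cfsg.Agent.Lib.Blocks.Local.memLocalRing_natCast _
    have ha : a ∈ Cfsg.Agent.Lib.Blocks.Central.localCenter G M :=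
      (Cfsg.Agent.Lib.Blocks.Central.localCenter G M).sub_mem
        (Cfsg.Agent.Lib.Blocks.Central.classSum_mem_localCenter g)
        (Cfsg.Agent.Lib.Blocks.Central.algebraMap_mem_localCenter hkloc)
    have hval : Cfsg.Agent.Lib.Blocks.Central.omega (θ : G → ℂ) a = Cfsg.centralChar (θ : G → ℂ) g - k := by
      simp only [a, Cfsg.Agent.Lib.Blocks.Central.omega_sub, Cfsg.Agent.Lib.Blocks.Central.omega_smul,
        Cfsg.Agent.Lib.Blocks.Central.omega_one θ.2,
        Cfsg.Agent.Lib.Blocks.Central.omega_classSum (Cfsg.Agent.Lib.Blocks.Central.isClassFunction_of_irr θ.2),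
        mul_one]
    rw [← hval]
    apply Cfsg.Agent.Lib.Blocks.BlockHom.memLocalIdeal_omega_of_coset_sum hM (Cfsg.pCore p G) hPp θ.2 ha
    intro g0 s hs
    have hcoeff : ∀ x : G, a.coeff x = (if IsConj g x then 1 else 0) - k * (if x = 1 then 1 else 0) := by
      intro x
      simp only [a, MonoidAlgebra.coeff_sub, Finsupp.sub_apply, MonoidAlgebra.coeff_smul_apply,
        smul_eq_mul, Cfsg.Agent.Lib.Blocks.Central.coeff_one_apply]
      congr 1
      by_cases h : IsConj g x
      · rw [if_pos h, Cfsg.Agent.Lib.Blocks.Central.coeff_classSum_of_isConj h]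
      · rw [if_neg h, Cfsg.Agent.Lib.Blocks.Central.coeff_classSum_of_not_isConj h]
    simp only [hcoeff]
    by_cases hg0 : g0 ∈ Cfsg.pCore p G
    · -- the coset is `P`
      have hmem : ∀ x, x ∈ s ↔ x ∈ Cfsg.pCore p G := by
        intro x
        rw [hs]
        constructor
        · intro h
          have := (Cfsg.pCore p G).mul_mem hg0 h
          simpa using this
        · intro h
          exact (Cfsg.pCore p G).mul_mem ((Cfsg.pCore p G).inv_mem hg0) h
      have h1 : ∑ x ∈ s, (if IsConj g x then (1 : ℂ) else 0) = k := by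
        rw [hk, ← Cfsg.Agent.Lib.Char.Integrality.card_classFinset, Finset.sum_boole]
        congr 2
        ext x
        simp only [Finset.mem_filter, Cfsg.Agent.Lib.Char.Integrality.mem_classFinset, hmem]
        exact ⟨fun h => h.2, fun h => ⟨hK x h, h⟩⟩
      have h2 : ∑ x ∈ s, (if x = 1 then (1 : ℂ) else 0) = 1 := by
        rw [Finset.sum_ite_eq' s 1]
        rw [if_pos ((hmem 1).2 (Cfsg.pCore p G).one_mem)]
      rw [Finset.sum_sub_distrib, ← Finset.mul_sum, h1, h2, mul_one, sub_self]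
      exact Cfsg.Agent.Lib.Blocks.Local.memLocalIdeal_zero
    · -- the coset misses `P`
      have hnot : ∀ x ∈ s, x ∉ Cfsg.pCore p G := by
        intro x hx hxP
        apply hg0
        have h1 := (hs x).1 hx
        have := (Cfsg.pCore p G).mul_mem hxP ((Cfsg.pCore p G).inv_mem h1)
        simpa using this
      rw [Finset.sum_eq_zero]
      · exact Cfsg.Agent.Lib.Blocks.Local.memLocalIdeal_zero
      · intro x hx
        have h1 : ¬ IsConj g x := fun h => hnot x hx (hK x h)
        have h2 : x ≠ 1 := fun h => hnot x hx (h ▸ (Cfsg.pCore p G).one_mem)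
        rw [if_neg h1, if_neg h2, mul_zero, sub_zero]
  intro g
  by_cases hg : g ∈ Subgroup.centralizer (Cfsg.pCore p G : Set G)
  · have h1 := key χ g hg
    have h2 := key ψ g hg
    have h3 := Cfsg.Agent.Lib.Blocks.Local.memLocalIdeal_sub h1 h2
    convert h3 using 1
    ring
  · exact Cfsg.Agent.Lib.Blocks.Local.memLocalIdeal_sub
      (Cfsg.Agent.Lib.Blocks.BrauerMap.memLocalIdeal_centralChar_of_not_centralizer hM (Cfsg.pCore p G) hPp χ.2 hg)
      (Cfsg.Agent.Lib.Blocks.BrauerMap.memLocalIdeal_centralChar_of_not_centralizer hM (Cfsg.pCore p G) hPp ψ.2 hg)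


/-- A group of characteristic `p`: every block is principal. -/
theorem eq_principal_of_centralizer_le {G : Type u} [Group G] [Finite G] (p : ℕ) [Fact p.Prime]
    {M : Ideal Cfsg.AlgInt} (hM : Cfsg.IsPModular p M)
    (hCle : Subgroup.centralizer (Cfsg.pCore p G : Set G) ≤ Cfsg.pCore p G)
    {b : Set (Cfsg.IrrCharacter G)} (hb : Cfsg.IsPBlock M b) : b = Cfsg.principalBlock M G := by
  obtain ⟨ξ, rfl⟩ := hb
  ext ψ
  constructor
  · intro _
    exact sameBlock_of_centralizer_le p M hM hCle (Cfsg.Agent.Lib.Blocks.Principal.trivChar G) ψ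
  · intro _
    exact sameBlock_of_centralizer_le p M hM hCle ξ ψ

/-- **A block with a nontrivial defect group is principal**, if all nontrivial `p`-subgroups have the
Borel–Tits property. -/
theorem eq_principal_of_defect_ne_bot {G : Type u} [Group G] [Finite G] (p : ℕ) [Fact p.Prime]
    {M : Ideal Cfsg.AlgInt} (hM : Cfsg.IsPModular p M)
    (hBT : ∀ R : Subgroup G, IsPGroup p R → R ≠ ⊥ → ∃ Q : Subgroup G, IsPGroup p Q ∧
      Subgroup.normalizer (R : Set G) ≤ Subgroup.normalizer (Q : Set G) ∧ R ≤ Q ∧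
      Subgroup.centralizer (Q : Set G) ≤ Q)
    {B : Set (Cfsg.IrrCharacter G)} (hB : Cfsg.IsPBlock M B) {D₀ : Subgroup G}
    (hD₀ : Cfsg.IsDefectGroup p M B D₀) (hne : D₀ ≠ ⊥) : B = Cfsg.principalBlock M G := by
  classical
  haveI := Fintype.ofFinite G
  haveI : M.IsPrime := Cfsg.Agent.Lib.Blocks.Local.isPrime_of_isPModular hM
  have hDp : IsPGroup p D₀ := by
    obtain ⟨g, -, P, rfl⟩ := hD₀
    exact P.isPGroup'.map _
  obtain ⟨Q, hQp, hNQ, hDQ, hCQ⟩ := hBT D₀ hDp hne
  set N := Subgroup.normalizer (D₀ : Set G) with hN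
  obtain ⟨b, hb, hdb, hind⟩ :=
    Cfsg.Agent.Lib.Blocks.FirstMain.exists_isInducedBlock_of_isDefectGroup hM hDp hB hD₀
  have hcore : Cfsg.pCore p ↥N ≤ D₀.subgroupOf N := Cfsg.Agent.S0912.result p M hM _ hb _ hdb
  have hQN : Q.subgroupOf N ≤ Cfsg.pCore p ↥N := by
    apply Cfsg.Agent.Lib.Basic.PCore.le_pCore
    · constructor
      intro n hn g
      rw [Subgroup.mem_subgroupOf] at hn ⊢
      exact (Subgroup.mem_normalizer_iff.mp (hNQ g.2) _).mp hn
    · rintro ⟨x, hx⟩
      obtain ⟨k, hk⟩ := hQp ⟨x.1, Subgroup.mem_subgroupOf.mp hx⟩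
      refine ⟨k, ?_⟩
      apply Subtype.ext
      apply Subtype.ext
      have h1 := congrArg Subtype.val hk
      simpa using h1
  -- `Q = D₀`, since normalisers grow in `p`-groups
  have hQD : Q ≤ D₀ := by
    by_contra hcon
    have hlt : D₀.subgroupOf Q ≠ ⊤ := by
      intro htop
      apply hcon
      intro x hx
      have h1 : (⟨x, hx⟩ : ↥Q) ∈ D₀.subgroupOf Q := by rw [htop]; trivial
      exact Subgroup.mem_subgroupOf.mp h1
    haveI : Group.IsNilpotent ↥Q := hQp.isNilpotent
    have hnc := Group.normalizerCondition_of_isNilpotent (G := ↥Q) (D₀.subgroupOf Q) (lt_top_iff_ne_top.mpr hlt)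
    obtain ⟨x, hx1, hx2⟩ := SetLike.exists_of_lt hnc
    have hxN : (x : G) ∈ N := by
      rw [hN, Subgroup.mem_normalizer_iff]
      intro h
      constructor
      · intro hh
        by_cases hhQ : h ∈ Q
        · have h3 := (Subgroup.mem_normalizer_iff.mp hx1 ⟨h, hhQ⟩).mp (Subgroup.mem_subgroupOf.mpr hh)
          exact Subgroup.mem_subgroupOf.mp h3
        · exact absurd (hDQ hh) hhQ
      · intro hh
        have hhQ : h ∈ Q := by
          have h3 := Q.mul_mem (Q.mul_mem (Q.inv_mem x.2) (hDQ hh)) x.2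
          simpa [mul_assoc] using h3
        have h3 := (Subgroup.mem_normalizer_iff.mp hx1 ⟨h, hhQ⟩).mpr (Subgroup.mem_subgroupOf.mpr hh)
        exact Subgroup.mem_subgroupOf.mp h3
    have h4 : (⟨x, hxN⟩ : ↥N) ∈ D₀.subgroupOf N :=
      hcore (hQN (Subgroup.mem_subgroupOf.mpr x.2))
    exact hx2 (Subgroup.mem_subgroupOf.mpr (Subgroup.mem_subgroupOf.mp h4))
  have hQeq : D₀ = Q := le_antisymm hDQ hQD
  subst hQeq
  -- the normaliser has characteristic `p`
  have hDN : D₀.subgroupOf N ≤ Cfsg.pCore p ↥N := hQN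
  have hCle : Subgroup.centralizer (Cfsg.pCore p ↥N : Set ↥N) ≤ Cfsg.pCore p ↥N := by
    intro x hx
    apply hDN
    rw [Subgroup.mem_subgroupOf]
    apply hCQ
    rw [Subgroup.mem_centralizer_iff]
    intro y hy
    have hyN : y ∈ N := Subgroup.le_normalizer hy
    have h2 := Subgroup.mem_centralizer_iff.mp hx ⟨y, hyN⟩
      (hDN (Subgroup.mem_subgroupOf.mpr hy))
    exact congrArg Subtype.val h2
  have hbp := eq_principal_of_centralizer_le p hM hCle hb
  have h3 : Cfsg.IsInducedBlock M N b (Cfsg.principalBlock M G) :=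
    (Cfsg.Agent.S0936.result p M hM N b ⟨B, hind⟩).2 hbp
  exact Cfsg.Agent.Lib.Blocks.FirstMain2.induced_unique hind h3

end Cfsg.Agent.Lib.BorelTits.OneBlock
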