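import Cfsg.Agent.Lib.BorelTits.Cent
import Cfsg.Agent.Lib.ChevBN.SylowU
import Cfsg.Agent.Lib.Components.CharP
import Cfsg.Agent.Lib.Basic.PCore

/-!
# Parabolic subgroups of Chevalley groups have characteristic `p`
-/

set_option autoImplicit false
set_option linter.unusedSectionVars false

namespace Cfsg.Agent.Lib.BorelTits.Par

open Cfsg Cfsg.Lie Cfsg.Agent.Lib.ChevBN.Elem Cfsg.Agent.Lib.ChevBN.Table
open Cfsg.Agent.Lib.ChevBN.Rel Cfsg.Agent.Lib.ChevBN.Pair
open Cfsg.Agent.Lib.ChevBN.Stmts Cfsg.Agent.Lib.ChevBN.Levi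
open Cfsg.Agent.Lib.BorelTits.Tbl3

variable {D : ChevalleyDatum} {F : Type*} [Field F] {η : ℕ → ℕ → ℤ}
variable (hR : Sys D F η) (hT : Tbl D) (hT2 : Tbl2 D) (hT3 : Tbl3 D)

section

variable [Fintype F] (p : ℕ) [Fact p.Prime] [CharP F p]

include hR hT in
/-- Unipotent radicals are `p`-groups. -/
theorem isPGroup_radical (J : Set ℕ) : IsPGroup p ↥(D.unipotentRadical F J) := by
  have h := Cfsg.Agent.Lib.ChevBN.SylowU.isPGroup_U hR hT p
  have hUG := U_le_G hR hT
  rintro ⟨x, hx⟩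
  have hxU := radical_le_U hR hT J hx
  obtain ⟨k, hk⟩ := h ⟨⟨x, hUG hxU⟩, Subgroup.mem_subgroupOf.mpr hxU⟩
  refine ⟨k, ?_⟩
  have h1 := congrArg (fun y => ((y : ↥(D.group F)) : GL D.Idx F)) (congrArg Subtype.val hk)
  simp only [SubgroupClass.coe_pow, OneMemClass.coe_one] at h1
  apply Subtype.ext
  simpa using h1

include hR hT hT2 in
/-- Unipotent radicals are normal `p`-subgroups of the parabolic subgroups, so they lie in the
`p`-core. -/
theorem radical_le_pCore (J : Set ℕ) :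
    (D.unipotentRadical F J).subgroupOf (D.parabolicSubgroup F J) ≤
      pCore p ↥(D.parabolicSubgroup F J) := by
  apply Cfsg.Agent.Lib.Basic.PCore.le_pCore
  · constructor
    intro n hn g
    rw [Subgroup.mem_subgroupOf] at hn ⊢
    have h1 := parabolic_le_norm hR hT hT2 J g.2
    exact (Subgroup.mem_normalizer_iff.mp h1 _).mp hn
  · have h := isPGroup_radical hR hT p J
    rintro ⟨x, hx⟩
    obtain ⟨k, hk⟩ := h ⟨x.1, Subgroup.mem_subgroupOf.mp hx⟩
    refine ⟨k, ?_⟩
    apply Subtype.ext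
    apply Subtype.ext
    have h1 := congrArg Subtype.val hk
    simpa using h1

include hR hT hT2 hT3 in
/-- A proper standard parabolic subgroup has characteristic `p`. -/
theorem centralizer_pCore_le {J : Set ℕ} (hJ : ∃ i, i < D.rank ∧ i ∉ J) :
    Subgroup.centralizer (pCore p ↥(D.parabolicSubgroup F J) : Set ↥(D.parabolicSubgroup F J)) ≤
      pCore p ↥(D.parabolicSubgroup F J) := by
  intro x hx
  have hle := radical_le_pCore hR hT hT2 p J
  have hUP : D.unipotentRadical F J ≤ D.parabolicSubgroup F J :=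
    le_trans (radical_le_U hR hT J) (U_le_parabolic hR hT J)
  have hPG : D.parabolicSubgroup F J ≤ D.group F := by
    rw [parabolic_eq hR hT]
    refine sup_le (B_N_G hR hT).1 (le_trans ?_ (B_N_G hR hT).2.1)
    rw [Cfsg.Agent.Lib.ChevBN.Monomial.NJ, Subgroup.closure_le]
    rintro g ⟨j, -, hl, rfl⟩
    exact Cfsg.Agent.Lib.ChevBN.Monomial.A_mem_N hR hT hl
  have hc : (x : GL D.Idx F) ∈ Subgroup.centralizer (D.unipotentRadical F J : Set (GL D.Idx F)) := by
    rw [Subgroup.mem_centralizer_iff]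
    intro y hy
    have h1 : (⟨y, hUP hy⟩ : ↥(D.parabolicSubgroup F J)) ∈ pCore p ↥(D.parabolicSubgroup F J) :=
      hle (Subgroup.mem_subgroupOf.mpr hy)
    have h2 := Subgroup.mem_centralizer_iff.mp hx _ h1
    exact congrArg Subtype.val h2
  have h3 := Cfsg.Agent.Lib.BorelTits.Cent.cent_le_radical hR hT hT2 hT3 hJ (hPG x.2) hc
  exact hle (Subgroup.mem_subgroupOf.mpr h3)

include hR hT hT2 hT3 in
/-- `F*(P_J)` is a `p`-group. -/
theorem isPGroup_Fstar {J : Set ℕ} (hJ : ∃ i, i < D.rank ∧ i ∉ J) :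
    IsPGroup p ↥(generalizedFittingSubgroup ↥(D.parabolicSubgroup F J)) :=
  (Cfsg.Agent.Lib.Components.CharP.isPGroup_Fstar_iff_centralizer_le p).2
    (centralizer_pCore_le hR hT hT2 hT3 p hJ)

end

end Cfsg.Agent.Lib.BorelTits.Par
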