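import Cfsg.Agent.Lib.BorelTits.Main
import Cfsg.Agent.Lib.BorelTits.Par
import Cfsg.Agent.Lib.BorelTits.OneBlock
import Cfsg.Agent.Lib.StChar.Uniq
import Cfsg.Agent.S0906
import Cfsg.Agent.S0908
import Cfsg.Agent.Lib.Blocks.RegInt

/-!
# The `p`-blocks of a Chevalley group

A Chevalley group has exactly two `p`-blocks: the block `{St}` of the Steinberg character, and the
principal block, which contains all the other irreducible characters.
-/

set_option autoImplicit false
set_option linter.unusedSectionVars false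
set_option linter.style.haveILetI false

namespace Cfsg.Agent.Lib.BorelTits.BlockCount

open Cfsg Cfsg.Lie Cfsg.Agent.Lib.ChevBN.Elem Cfsg.Agent.Lib.ChevBN.Table
open Cfsg.Agent.Lib.ChevBN.Rel Cfsg.Agent.Lib.ChevBN.Pair
open Cfsg.Agent.Lib.ChevBN.Stmts Cfsg.Agent.Lib.ChevBN.Levi
open Cfsg.Agent.Lib.BorelTits.Tbl3
open scoped ComplexConjugate

variable {D : ChevalleyDatum} {F : Type*} [Field F] {η : ℕ → ℕ → ℤ}
variable (hR : Sys D F η) (hT : Tbl D) (hT2 : Tbl2 D) (hT3 : Tbl3 D)

variable [Fintype F] (p : ℕ) [Fact p.Prime] [CharP F p]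

include hR hT in
/-- By Sylow's theorem, a `p`-subgroup is conjugate into the group of positive root elements. -/
theorem exists_conj_U {U : Subgroup (GL D.Idx F)} (hUG : U ≤ D.group F) (hU : IsPGroup p ↥U) :
    ∃ g ∈ D.group F, Cfsg.Agent.Lib.BorelTits.Weight.cj g U ≤ D.posUnipotent F := by
  obtain ⟨P, hP⟩ := Cfsg.Agent.Lib.ChevBN.SylowU.exists_sylow hR hT p
  have hpg : IsPGroup p ↥(U.subgroupOf (D.group F)) :=
    hU.of_injective (Subgroup.subgroupOfEquivOfLe hUG).toMonoidHom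
      (Subgroup.subgroupOfEquivOfLe hUG).injective
  obtain ⟨S', hS'⟩ := hpg.exists_le_sylow
  obtain ⟨g, hg⟩ := MulAction.exists_smul_eq (↥(D.group F)) S' P
  refine ⟨((g⁻¹ : ↥(D.group F)) : GL D.Idx F), (g⁻¹ : ↥(D.group F)).2, ?_⟩
  intro y hy
  rw [Cfsg.Agent.Lib.BorelTits.Weight.mem_cj] at hy
  have hyG : y ∈ D.group F := by
    have h1 := hUG hy
    have h2 : y = (g : GL D.Idx F) * (((g⁻¹ : ↥(D.group F)) : GL D.Idx F) * y *
        ((g⁻¹ : ↥(D.group F)) : GL D.Idx F)⁻¹) * (g : GL D.Idx F)⁻¹ := by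
      simp only [InvMemClass.coe_inv]
      group
    rw [h2]
    simp only [InvMemClass.coe_inv] at h1
    exact Subgroup.mul_mem _ (Subgroup.mul_mem _ g.2 h1) (Subgroup.inv_mem _ g.2)
  have h3 : g⁻¹ * (⟨y, hyG⟩ : ↥(D.group F)) * g ∈ (S' : Subgroup ↥(D.group F)) := by
    apply hS'
    rw [Subgroup.mem_subgroupOf]
    simpa using hy
  have h4 : g * (g⁻¹ * (⟨y, hyG⟩ : ↥(D.group F)) * g) * g⁻¹ ∈ (P : Subgroup ↥(D.group F)) := by
    rw [← hg, Sylow.coe_subgroup_smul]
    exact ⟨_, h3, rfl⟩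
  have h5 : g * (g⁻¹ * (⟨y, hyG⟩ : ↥(D.group F)) * g) * g⁻¹ = ⟨y, hyG⟩ := by group
  rw [h5, hP, Subgroup.mem_subgroupOf] at h4
  exact h4

theorem mem_map_conj {X : Type*} [Group X] (g y : X) (Q : Subgroup X) :
    y ∈ Q.map (MulAut.conj g).toMonoidHom ↔ g⁻¹ * y * g ∈ Q := by
  constructor
  · rintro ⟨a, ha, rfl⟩
    simpa [mul_assoc] using ha
  · intro h
    refine ⟨_, h, ?_⟩
    simp [mul_assoc]

include hR hT hT2 hT3 in
/-- Every nontrivial `p`-subgroup of the Chevalley group has a `p`-overgroup `Q` with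
`N(R) ≤ N(Q)` and `C(Q) ≤ Q`. -/
theorem bt_property (R : Subgroup ↥(D.group F)) (hRp : IsPGroup p R) (hne : R ≠ ⊥) :
    ∃ Q : Subgroup ↥(D.group F), IsPGroup p Q ∧
      Subgroup.normalizer (R : Set ↥(D.group F)) ≤ Subgroup.normalizer (Q : Set ↥(D.group F)) ∧
      R ≤ Q ∧ Subgroup.centralizer (Q : Set ↥(D.group F)) ≤ Q := by
  have hUG : R.map (D.group F).subtype ≤ D.group F := Subgroup.map_subtype_le R
  have hne' : R.map (D.group F).subtype ≠ ⊥ := by
    intro h
    apply hne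
    rwa [Subgroup.map_eq_bot_iff_of_injective _ (Subgroup.subtype_injective _)] at h
  have hpg : IsPGroup p ↥(R.map (D.group F).subtype) := by
    rintro ⟨x, y, hy, rfl⟩
    obtain ⟨k, hk⟩ := hRp ⟨y, hy⟩
    refine ⟨k, Subtype.ext ?_⟩
    have h1 := congrArg (fun z : R => ((z : ↥(D.group F)) : GL D.Idx F)) hk
    simpa using h1
  obtain ⟨g, hg, J, hJ, hN, hle⟩ :=
    Cfsg.Agent.Lib.BorelTits.Main.main hR hT hT2 hT3 hUG hne' (exists_conj_U hR hT p hUG hpg)
  have hUJG : D.unipotentRadical F J ≤ D.group F := le_trans (radical_le_U hR hT J) (U_le_G hR hT)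
  refine ⟨((D.unipotentRadical F J).map (MulAut.conj g).toMonoidHom).subgroupOf (D.group F),
    ?_, ?_, ?_, ?_⟩
  · rintro ⟨x, hx⟩
    rw [Subgroup.mem_subgroupOf, mem_map_conj] at hx
    obtain ⟨k, hk⟩ := Cfsg.Agent.Lib.BorelTits.Par.isPGroup_radical hR hT p J ⟨_, hx⟩
    refine ⟨k, Subtype.ext (Subtype.ext ?_)⟩
    have h1 := congrArg Subtype.val hk
    have h2 : (g⁻¹ * (x : GL D.Idx F) * g) ^ p ^ k = g⁻¹ * ((x : GL D.Idx F) ^ p ^ k) * g := by
      have := map_pow (MulAut.conj g⁻¹).toMonoidHom (x : GL D.Idx F) (p ^ k)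
      simpa [mul_assoc] using this.symm
    have h3 : g⁻¹ * ((x : GL D.Idx F) ^ p ^ k) * g = 1 := by
      rw [← h2]
      simpa using h1
    have h4 : (x : GL D.Idx F) ^ p ^ k = 1 := by
      have := congrArg (fun z => g * z * g⁻¹) h3
      simpa [mul_assoc] using this
    exact h4
  · intro n hn
    have hn' : (n : GL D.Idx F) ∈
        Subgroup.normalizer ((R.map (D.group F).subtype : Subgroup (GL D.Idx F)) : Set (GL D.Idx F))
          ⊓ D.group F := by
      refine Subgroup.mem_inf.mpr ⟨?_, n.2⟩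
      rw [Subgroup.mem_normalizer_iff]
      intro h
      constructor
      · rintro ⟨y, hy, rfl⟩
        exact ⟨n * y * n⁻¹, (Subgroup.mem_normalizer_iff.mp hn y).mp hy, by simp⟩
      · rintro ⟨y, hy, hye⟩
        have h2 : n⁻¹ * y * n ∈ R := by
          have h3 := (Subgroup.mem_normalizer_iff.mp hn (n⁻¹ * y * n)).mpr
          apply h3
          have e : n * (n⁻¹ * y * n) * n⁻¹ = y := by group
          rwa [e]
        refine ⟨_, h2, ?_⟩
        have hye' : (y : GL D.Idx F) = (n : GL D.Idx F) * h * (n : GL D.Idx F)⁻¹ := hye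
        simp only [Subgroup.subtype_apply, Subgroup.coe_mul, InvMemClass.coe_inv, hye']
        group
    obtain ⟨a, ha, hae⟩ := hN hn'
    have hae' : (n : GL D.Idx F) = g * a * g⁻¹ := by
      rw [← hae]
      rfl
    have ha' := parabolic_le_norm hR hT hT2 J ha
    rw [Subgroup.mem_normalizer_iff]
    intro h
    rw [Subgroup.mem_subgroupOf, Subgroup.mem_subgroupOf, mem_map_conj, mem_map_conj]
    have e : g⁻¹ * ((n * h * n⁻¹ : ↥(D.group F)) : GL D.Idx F) * g =
        a * (g⁻¹ * (h : GL D.Idx F) * g) * a⁻¹ := by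
      simp only [Subgroup.coe_mul, InvMemClass.coe_inv, hae']
      group
    rw [e]
    exact Subgroup.mem_normalizer_iff.mp ha' _
  · intro x hx
    rw [Subgroup.mem_subgroupOf]
    exact hle ⟨x, hx, rfl⟩
  · intro x hx
    rw [Subgroup.mem_subgroupOf, mem_map_conj]
    apply Cfsg.Agent.Lib.BorelTits.Cent.cent_le_radical hR hT hT2 hT3 hJ
    · exact Subgroup.mul_mem _ (Subgroup.mul_mem _ (Subgroup.inv_mem _ hg) x.2) hg
    · rw [Subgroup.mem_centralizer_iff]
      intro u hu
      have h1 : g * u * g⁻¹ ∈ D.group F :=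
        Subgroup.mul_mem _ (Subgroup.mul_mem _ hg (hUJG hu)) (Subgroup.inv_mem _ hg)
      have h2 : (⟨_, h1⟩ : ↥(D.group F)) ∈
          ((D.unipotentRadical F J).map (MulAut.conj g).toMonoidHom).subgroupOf (D.group F) := by
        rw [Subgroup.mem_subgroupOf, mem_map_conj]
        simpa [mul_assoc] using hu
      have h3 := congrArg Subtype.val (Subgroup.mem_centralizer_iff.mp hx _ h2)
      simp only [Subgroup.coe_mul] at h3
      have h4 : u * (g⁻¹ * (x : GL D.Idx F) * g) = g⁻¹ * (g * u * g⁻¹ * (x : GL D.Idx F)) * g := by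
        group
      have h5 : (g⁻¹ * (x : GL D.Idx F) * g) * u = g⁻¹ * ((x : GL D.Idx F) * (g * u * g⁻¹)) * g := by
        group
      rw [h4, h5, h3]

section Blocks

variable {M : Ideal Cfsg.AlgInt}

/-- The Steinberg character as an irreducible character. -/
noncomputable def St (hR : Sys D F η) (hT : Tbl D) : IrrCharacter ↥(D.group F) :=
  ⟨D.steinbergCharacter F, Cfsg.Agent.Lib.StChar.Chev.steinberg_isIrr hR hT⟩

include hT2 in
/-- The block of the Steinberg character is a singleton. -/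
theorem blockOf_St (hM : IsPModular p M) :
    blockOf M ((St hR hT : IrrCharacter ↥(D.group F)) : ↥(D.group F) → ℂ) = {St hR hT} := by
  classical
  haveI := Fintype.ofFinite ↥(D.group F)
  haveI := Cfsg.Agent.Lib.Blocks.Local.isPrime_of_isPModular hM
  apply Set.Subset.antisymm
  · refine Cfsg.Agent.Lib.Blocks.Osima.blockOf_subset_of_local (fun g => ?_) rfl
    have hp : p.Prime := Fact.out
    rw [blockCoeff, finsum_mem_singleton]
    have h1 : ((St hR hT : IrrCharacter ↥(D.group F)) : ↥(D.group F) → ℂ) 1 =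
        (Fintype.card F : ℂ) ^ (D.nroots / 2) :=
      Cfsg.Agent.Lib.StChar.Top.steinberg_one hR hT hT2
    have h2 := Cfsg.Agent.Lib.StChar.Top.pow_factorization hR hT (F := F) p
    obtain ⟨m, hm, hcard⟩ : ∃ m : ℕ, ¬ p ∣ m ∧
        p ^ (Nat.card ↥(D.group F)).factorization p * m = Nat.card ↥(D.group F) :=
      ⟨_, Nat.not_dvd_ordCompl hp Nat.card_pos.ne', Nat.ordProj_mul_ordCompl_eq_self _ p⟩
    have h3 : (Nat.card ↥(D.group F) : ℂ) = ((Fintype.card F : ℂ) ^ (D.nroots / 2)) * (m : ℂ) := by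
      rw [h2] at hcard
      have h' := congrArg (fun n : ℕ => (n : ℂ)) hcard
      simpa using h'.symm
    have h4 : ((Fintype.card F : ℂ) ^ (D.nroots / 2)) ≠ 0 := by
      apply pow_ne_zero
      exact_mod_cast Fintype.card_ne_zero
    have h5 : (m : ℂ) ≠ 0 := by
      intro h0
      have h6 : Nat.card ↥(D.group F) ≠ 0 := Nat.card_pos.ne'
      apply h6
      rw [← Nat.cast_eq_zero (R := ℂ), h3, h0, mul_zero]
    have e : (Nat.card ↥(D.group F) : ℂ)⁻¹ *
        (((St hR hT : IrrCharacter ↥(D.group F)) : ↥(D.group F) → ℂ) 1 *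
          conj (((St hR hT : IrrCharacter ↥(D.group F)) : ↥(D.group F) → ℂ) g)) =
        (m : ℂ)⁻¹ *
          conj (((St hR hT : IrrCharacter ↥(D.group F)) : ↥(D.group F) → ℂ) g) := by
      rw [h1, h3]
      field_simp
    rw [e]
    refine Cfsg.Agent.Lib.Blocks.Local.memLocalRing_mul
      (Cfsg.Agent.Lib.Blocks.Local.memLocalRing_inv_natCast hM hm)
      (Cfsg.Agent.Lib.Blocks.Local.memLocalRing_of_isIntegral ?_)
    exact (Cfsg.Agent.Lib.Blocks.Central.isIntegral_irr (St hR hT).2 g).map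
      (starRingEnd ℂ).toIntAlgHom
  · rintro _ rfl
    exact Cfsg.Agent.Lib.Blocks.Osima.mem_blockOf_self _

include hT2 hT3 in
/-- A block is the principal block or the block of the Steinberg character. -/
theorem block_cases (hM : IsPModular p M) {B : Set (IrrCharacter ↥(D.group F))} (hB : IsPBlock M B) :
    B = principalBlock M ↥(D.group F) ∨
      B = blockOf M ((St hR hT : IrrCharacter ↥(D.group F)) : ↥(D.group F) → ℂ) := by
  classical
  have hp : p.Prime := Fact.out
  haveI := Cfsg.Agent.Lib.Blocks.Local.isPrime_of_isPModular hM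
  obtain ⟨g, hg⟩ := Cfsg.Agent.S0906.result p M hM B hB
  obtain ⟨P⟩ : Nonempty (Sylow p (Subgroup.centralizer ({g} : Set ↥(D.group F)))) := inferInstance
  have hD₀ : IsDefectGroup p M B
      ((P : Subgroup (Subgroup.centralizer ({g} : Set ↥(D.group F)))).map
        (Subgroup.centralizer ({g} : Set ↥(D.group F))).subtype) := ⟨g, hg, P, rfl⟩
  by_cases hne : (P : Subgroup (Subgroup.centralizer ({g} : Set ↥(D.group F)))).map
      (Subgroup.centralizer ({g} : Set ↥(D.group F))).subtype = ⊥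
  · right
    have hcard := Cfsg.Agent.S0908.result p M hM B hB _ hD₀
    rw [hne] at hcard
    have hcard' : p ^ blockDefect p B = 1 := by
      rw [← hcard]
      simp
    have h0 : blockDefect p B = 0 := by
      by_contra h
      exact (Nat.one_lt_pow h hp.one_lt).ne' hcard'
    obtain ⟨χ, rfl⟩ := hB
    have hχ : χ ∈ blockOf M (χ : ↥(D.group F) → ℂ) := Cfsg.Agent.Lib.Blocks.Osima.mem_blockOf_self χ
    have hfac : (Nat.card ↥(D.group F)).factorization p ≤
        (charDegree (χ : ↥(D.group F) → ℂ)).factorization p := by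
      rw [blockDefect, Nat.sub_eq_zero_iff_le] at h0
      exact h0.trans (Nat.sInf_le ⟨χ, hχ, rfl⟩)
    have hdvd := (hp.pow_dvd_iff_le_factorization
      (Cfsg.Agent.Lib.Blocks.RegInt.charDegree_ne_zero χ)).2 hfac
    have hχS : (χ : ↥(D.group F) → ℂ) = D.steinbergCharacter F :=
      Cfsg.Agent.Lib.StChar.Uniq.steinberg_unique hR hT hT2 p _ χ.2
        ⟨_, (Cfsg.Agent.Lib.Blocks.RegInt.charDegree_cast χ).symm, hdvd⟩
    rw [hχS]
    rfl
  · left
    exact Cfsg.Agent.Lib.BorelTits.OneBlock.eq_principal_of_defect_ne_bot p hM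
      (bt_property hR hT hT2 hT3 p) hB hD₀ hne

include hR hT hT2 hT3 in
/-- **A Chevalley group (of positive rank) has exactly two `p`-blocks.** -/
theorem card_blocks (hM : IsPModular p M) (hpos : 0 < D.nroots / 2) :
    Nat.card {B : Set (IrrCharacter ↥(D.group F)) // IsPBlock M B} = 2 := by
  classical
  haveI := Fintype.ofFinite ↥(D.group F)
  haveI := Cfsg.Agent.Lib.Blocks.Local.isPrime_of_isPModular hM
  have hne : principalBlock M ↥(D.group F) ≠
      blockOf M ((St hR hT : IrrCharacter ↥(D.group F)) : ↥(D.group F) → ℂ) := by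
    intro h
    have h1 : Cfsg.Agent.Lib.Blocks.Principal.trivChar ↥(D.group F) ∈
        blockOf M ((St hR hT : IrrCharacter ↥(D.group F)) : ↥(D.group F) → ℂ) :=
      h ▸ Cfsg.Agent.Lib.Blocks.Principal.trivChar_mem_principalBlock
    rw [blockOf_St hR hT hT2 p hM] at h1
    have h2 : ((Cfsg.Agent.Lib.Blocks.Principal.trivChar ↥(D.group F) : IrrCharacter ↥(D.group F)) :
        ↥(D.group F) → ℂ) 1 = ((St hR hT : IrrCharacter ↥(D.group F)) : ↥(D.group F) → ℂ) 1 := by
      rw [Set.mem_singleton_iff.mp h1]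
    have h3 : ((St hR hT : IrrCharacter ↥(D.group F)) : ↥(D.group F) → ℂ) 1 =
        (Fintype.card F : ℂ) ^ (D.nroots / 2) :=
      Cfsg.Agent.Lib.StChar.Top.steinberg_one hR hT hT2
    rw [h3] at h2
    have h4 : (1 : ℂ) = (Fintype.card F : ℂ) ^ (D.nroots / 2) := h2
    have h5 : Fintype.card F ^ (D.nroots / 2) = 1 := by
      have : ((Fintype.card F ^ (D.nroots / 2) : ℕ) : ℂ) = ((1 : ℕ) : ℂ) := by
        push_cast
        exact h4.symm
      exact_mod_cast this
    have h6 : 1 < Fintype.card F := Fintype.one_lt_card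
    exact (Nat.one_lt_pow hpos.ne' h6).ne' h5
  rw [Nat.card_eq_two_iff]
  refine ⟨⟨_, Cfsg.Agent.Lib.Blocks.Principal.isPBlock_principalBlock M⟩, ⟨_, ⟨St hR hT, rfl⟩⟩, ?_, ?_⟩
  · intro h
    exact hne (congrArg Subtype.val h)
  · ext ⟨B, hB⟩
    simp only [Set.mem_insert_iff, Set.mem_singleton_iff, Set.mem_univ, iff_true]
    rcases block_cases hR hT hT2 hT3 p hM hB with h | h
    · exact Or.inl (Subtype.ext h)
    · exact Or.inr (Subtype.ext h)

end Blocks

end Cfsg.Agent.Lib.BorelTits.BlockCount
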